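import Mathlib
import Cfsg.Agent.Lib.Helper57.TSO.Defs
import Cfsg.Agent.Lib.Helper99.TensorNM
import Cfsg.Agent.Lib.Helper74.GUSP.SpCard

/-!
# Project TSO (S5980), package [BH]

A symplectic frame adapted to the tensor decomposition `F² ⊗ F^d`: all sign matrices
`diag(ε, ε)` and one `Jmat d κ` are, in this frame, elements of the tensor subgroup.
-/

set_option autoImplicit false

namespace Cfsg.Agent.Lib.Helper3.TSO

open Matrix
open scoped Kronecker MatrixGroups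
open Cfsg.Agent.Lib.Helper57.TSO
open Cfsg.Agent.Lib.Helper99

universe u

section Aux

variable {F : Type u} [Field F]

theorem bh_tens_dot {n₁ n₂ : ℕ} (u a : Fin n₁ → F) (w b : Fin n₂ → F) :
    tens u w ⬝ᵥ tens a b = (u ⬝ᵥ a) * (w ⬝ᵥ b) := by
  simp only [dotProduct, tens, Fintype.sum_prod_type, Finset.sum_mul_sum]
  apply Finset.sum_congr rfl
  intro i _
  apply Finset.sum_congr rfl
  intro j _
  ring

theorem bh_tens_smul_right {n₁ n₂ : ℕ} (t : F) (u : Fin n₁ → F) (w : Fin n₂ → F) :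
    tens u (t • w) = t • tens u w := by
  funext p
  simp only [tens, Pi.smul_apply, smul_eq_mul]
  ring

theorem bh_tens_neg_left {n₁ n₂ : ℕ} (u : Fin n₁ → F) (w : Fin n₂ → F) :
    tens (-u) w = -tens u w := by
  funext p
  simp only [tens, Pi.neg_apply]
  ring

theorem bh_Dmat_col (d : ℕ) (ε : Fin d → F) (k : Fin d ⊕ Fin d) :
    Dmat d ε *ᵥ Pi.single k 1 = Sum.elim ε ε k • (Pi.single k 1 : Fin d ⊕ Fin d → F) := by
  unfold Dmat
  rw [Matrix.diagonal_mulVec_single, mul_one]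
  funext i
  by_cases h : i = k
  · subst h
    simp
  · simp [Pi.single_eq_of_ne h]

theorem bh_Jmat_col_inl (d : ℕ) (κ : Fin d → F) (j : Fin d) :
    Jmat d κ *ᵥ Pi.single (Sum.inl j) 1 =
      κ j • (Pi.single (Sum.inr j) 1 : Fin d ⊕ Fin d → F) := by
  unfold Jmat
  rw [Matrix.mulVec_single_one]
  funext i
  rcases i with i | i
  · simp
  · by_cases h : i = j
    · subst h
      simp
    · simp [Pi.single_eq_of_ne, h]

theorem bh_Jmat_col_inr (d : ℕ) (κ : Fin d → F) (j : Fin d) :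
    Jmat d κ *ᵥ Pi.single (Sum.inr j) 1 =
      (-(κ j)⁻¹) • (Pi.single (Sum.inl j) 1 : Fin d ⊕ Fin d → F) := by
  unfold Jmat
  rw [Matrix.mulVec_single_one]
  funext i
  rcases i with i | i
  · by_cases h : i = j
    · subst h
      simp
    · simp [Pi.single_eq_of_ne, h]
  · simp

theorem bh_tens_smul_left {n₁ n₂ : ℕ} (t : F) (u : Fin n₁ → F) (w : Fin n₂ → F) :
    tens (t • u) w = t • tens u w := by
  funext p
  simp only [tens, Pi.smul_apply, smul_eq_mul]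
  ring

end Aux

/-- [BH] -/
theorem pkgBH : PkgBH.{u} := by
  intro F _ _ h2 d e P f₁ f₂ hf₁ hf₂ hS
  classical
  obtain ⟨c, hc, hform⟩ := hS
  -- the key formula on pure tensors
  have hten : ∀ (u u' : Fin 2 → F) (w w' : Fin d → F),
      Cfsg.sympForm d F (tnT e P (tens u w)) (tnT e P (tens u' w')) =
        c * (f₁ u u' * f₂ w w') := by
    intro u u' w w'
    have h1 : Cfsg.sympForm d F (tnT e P (tens u w)) (tnT e P (tens u' w')) =
        c * Cfsg.Geo.formOfGram id (Cfsg.Geo.gramMatrix f₁ ⊗ₖ Cfsg.Geo.gramMatrix f₂)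
          (tens u w) (tens u' w') := hform _ _
    rw [h1, fog_eq_dot, Function.id_comp, kron_mulVec_tens, bh_tens_dot,
      form_eq_fog hf₁.bilinear, form_eq_fog hf₂.bilinear, fog_eq_dot, fog_eq_dot,
      Function.id_comp, Function.id_comp]
  -- the alternating form on `F²`
  obtain ⟨δ₀, hδ₀⟩ : ∃ δ₀ : Fin 2 → F, δ₀ = Pi.single 0 1 := ⟨_, rfl⟩
  obtain ⟨δ₁, hδ₁⟩ : ∃ δ₁ : Fin 2 → F, δ₁ = Pi.single 1 1 := ⟨_, rfl⟩
  obtain ⟨γ, hγ⟩ : ∃ γ : F, γ = f₁ δ₀ δ₁ := ⟨_, rfl⟩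
  have h00 : f₁ δ₀ δ₀ = 0 := hf₁.alternating _
  have h11 : f₁ δ₁ δ₁ = 0 := hf₁.alternating _
  have h10 : f₁ δ₁ δ₀ = -γ := by
    rw [hγ]
    exact hf₁.skew δ₁ δ₀
  have hγ0 : γ ≠ 0 := by
    have hv : δ₀ ≠ 0 := by
      intro h
      have h1 := congrFun h 0
      rw [hδ₀] at h1
      simp at h1
    obtain ⟨-, x, hx⟩ := hf₁.nondegenerate δ₀ hv
    intro h0
    apply hx
    have hx' : x = x 0 • δ₀ + x 1 • δ₁ := by
      funext i
      fin_cases i <;> simp [hδ₀, hδ₁]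
    rw [hx', hf₁.bilinear.add_right, hf₁.bilinear.smul_right, hf₁.bilinear.smul_right, h00,
      ← hγ, h0]
    ring
  -- an orthogonal basis for `f₂`
  have hb₂ := hf₂.bilinear
  obtain ⟨B₂, hB₂⟩ : ∃ B₂ : LinearMap.BilinForm F (Fin d → F), ∀ x y, B₂ x y = f₂ x y :=
    ⟨LinearMap.mk₂ F f₂ hb₂.add_left hb₂.smul_left hb₂.add_right hb₂.smul_right,
      fun x y => rfl⟩
  letI : Invertible (2 : F) := invertibleOfNonzero h2
  have hsymm : LinearMap.IsSymm B₂ := ⟨fun x y => by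
    rw [RingHom.id_apply, hB₂, hB₂]
    exact hf₂.symm x y⟩
  obtain ⟨v, hv⟩ := LinearMap.BilinForm.exists_orthogonal_basis hsymm
  have hsep : B₂.SeparatingLeft := by
    intro x hx
    by_contra hne
    obtain ⟨y, hy⟩ := (hf₂.nondegenerate x hne).2
    exact hy (by rw [← hB₂]; exact hx y)
  have hnorm := fun i => hv.not_isOrtho_basis_self_of_separatingLeft hsep i
  rw [LinearMap.isOrthoᵢ_def] at hv
  have h3 : Module.finrank F (Fin d → F) = d := Module.finrank_fin_fun F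
  obtain ⟨bw, hbw⟩ : ∃ bw : Module.Basis (Fin d) F (Fin d → F),
      bw = v.reindex (finCongr h3) := ⟨_, rfl⟩
  have hort : ∀ i j : Fin d, i ≠ j → f₂ (bw i) (bw j) = 0 := by
    intro i j hij
    rw [hbw, Module.Basis.reindex_apply, Module.Basis.reindex_apply, ← hB₂]
    exact hv _ _ (fun h => hij ((finCongr h3).symm.injective h))
  have hnz : ∀ j : Fin d, f₂ (bw j) (bw j) ≠ 0 := by
    intro j
    rw [hbw, Module.Basis.reindex_apply, ← hB₂]
    exact hnorm _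
  -- the frame
  obtain ⟨κ, hκ⟩ : ∃ κ : Fin d → F, κ = fun j => -(c * γ * f₂ (bw j) (bw j)) := ⟨_, rfl⟩
  have hκj : ∀ j, κ j = -(c * γ * f₂ (bw j) (bw j)) := fun j => by rw [hκ]
  have hκ0 : ∀ j, κ j ≠ 0 := by
    intro j
    rw [hκj]
    exact neg_ne_zero.2 (mul_ne_zero (mul_ne_zero hc hγ0) (hnz j))
  obtain ⟨fr, hfr⟩ : ∃ fr : Fin d ⊕ Fin d → (Fin d ⊕ Fin d → F),
      fr = Sum.elim (fun j => tnT e P (tens δ₀ (bw j)))
        (fun j => (κ j)⁻¹ • tnT e P (tens δ₁ (bw j))) := ⟨_, rfl⟩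
  obtain ⟨Em, hEm⟩ : ∃ Em : Matrix (Fin d ⊕ Fin d) (Fin d ⊕ Fin d) F,
      Em = Matrix.of (fun r k => fr k r) := ⟨_, rfl⟩
  have hEcol : ∀ k, Em *ᵥ Pi.single k 1 = fr k := by
    intro k
    rw [Matrix.mulVec_single_one, hEm]
    rfl
  have hstd : ∀ k l : Fin d ⊕ Fin d,
      Cfsg.sympForm d F (Pi.single k 1) (Pi.single l 1) = Matrix.J (Fin d) F k l := by
    intro k l
    unfold Cfsg.sympForm
    rw [Matrix.mulVec_single_one, single_dotProduct, one_mul]
    rfl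
  have hJ : ∀ k l : Fin d ⊕ Fin d, Cfsg.sympForm d F (fr k) (fr l) =
      Cfsg.sympForm d F (Pi.single k 1) (Pi.single l 1) := by
    intro k l
    rw [hstd]
    rcases k with j | j <;> rcases l with k | k
    · rw [hfr]
      simp only [Sum.elim_inl]
      rw [hten, h00]
      simp [Matrix.J]
    · rw [hfr]
      simp only [Sum.elim_inl, Sum.elim_inr]
      rw [Cfsg.Agent.Lib.Helper13.sympForm_smul_right, hten, ← hγ]
      by_cases hjk : j = k
      · subst hjk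
        have hJv : Matrix.J (Fin d) F (Sum.inl j) (Sum.inr j) = -1 := by simp [Matrix.J]
        rw [hJv, inv_mul_eq_iff_eq_mul₀ (hκ0 j), hκj]
        ring
      · rw [hort j k hjk]
        simp [Matrix.J, Matrix.one_apply_ne hjk]
    · rw [hfr]
      simp only [Sum.elim_inl, Sum.elim_inr]
      rw [Cfsg.Agent.Lib.Helper13.sympForm_smul_left, hten, h10]
      by_cases hjk : j = k
      · subst hjk
        have hJv : Matrix.J (Fin d) F (Sum.inr j) (Sum.inl j) = 1 := by simp [Matrix.J]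
        rw [hJv, inv_mul_eq_iff_eq_mul₀ (hκ0 j), hκj]
        ring
      · rw [hort j k hjk]
        simp [Matrix.J, Matrix.one_apply_ne hjk]
    · rw [hfr]
      simp only [Sum.elim_inr]
      rw [Cfsg.Agent.Lib.Helper13.sympForm_smul_left,
        Cfsg.Agent.Lib.Helper13.sympForm_smul_right, hten, h11]
      simp [Matrix.J]
  have hEmem : Em ∈ Matrix.symplecticGroup (Fin d) F := by
    rw [SymplecticGroup.mem_iff']
    ext i j
    have h := hJ i j
    rw [← hEcol i, ← hEcol j] at h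
    unfold Cfsg.sympForm at h
    rw [Matrix.mulVec_mulVec, ← Matrix.vecMul_transpose Em (Pi.single i 1),
      ← Matrix.dotProduct_mulVec, Matrix.mulVec_mulVec, ← Matrix.mul_assoc] at h
    simpa [Matrix.mulVec_single_one] using h
  obtain ⟨E, hE⟩ : ∃ E : ↥(Cfsg.spGL d F),
      ((E.1 : GL (Fin d ⊕ Fin d) F) : Matrix (Fin d ⊕ Fin d) (Fin d ⊕ Fin d) F) = Em :=
    ⟨(Cfsg.Agent.Lib.Helper74.GUSP.spGLEquiv d F).symm ⟨Em, hEmem⟩, rfl⟩
  refine ⟨E.1, κ, E.2, hκ0, ?_, ?_⟩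
  · intro ε hε
    obtain ⟨L, hL⟩ : ∃ L : (Fin d → F) →ₗ[F] (Fin d → F), ∀ j, L (bw j) = ε j • bw j :=
      ⟨bw.constr F (fun j => ε j • bw j), fun j => Module.Basis.constr_basis _ _ _ _⟩
    have hLL : L ∘ₗ L = LinearMap.id := by
      apply bw.ext
      intro j
      rw [LinearMap.comp_apply, hL, map_smul, hL, smul_smul, LinearMap.id_apply]
      rcases hε j with h | h <;> rw [h] <;> simp
    obtain ⟨Bm, hBm⟩ : ∃ Bm : Matrix (Fin d) (Fin d) F, Bm = LinearMap.toMatrix' L := ⟨_, rfl⟩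
    have hBB : Bm * Bm = 1 := by
      rw [hBm, ← LinearMap.toMatrix'_comp, hLL, LinearMap.toMatrix'_id]
    obtain ⟨Bg, hBg⟩ : ∃ Bg : GL (Fin d) F, (Bg : Matrix (Fin d) (Fin d) F) = Bm :=
      ⟨⟨Bm, Bm, hBB, hBB⟩, rfl⟩
    have hBw : ∀ j, Bm *ᵥ bw j = ε j • bw j := by
      intro j
      rw [hBm, LinearMap.toMatrix'_mulVec, hL]
    refine ⟨tnPhi e P (kronGL 1 Bg), ?_, ?_⟩
    · rw [tensorProductSubgroup_eq_map]
      exact ⟨kronGL 1 Bg, kronGL_mem 1 Bg, rfl⟩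
    · apply Matrix.ext_of_mulVec_single
      intro k
      rw [← Matrix.mulVec_mulVec, ← Matrix.mulVec_mulVec, hE, hEcol, bh_Dmat_col,
        Matrix.mulVec_smul, hEcol]
      have hkey : ∀ (u : Fin 2 → F) (j : Fin d),
          ((tnPhi e P (kronGL 1 Bg) : GL (Fin d ⊕ Fin d) F) :
            Matrix (Fin d ⊕ Fin d) (Fin d ⊕ Fin d) F) *ᵥ tnT e P (tens u (bw j)) =
            ε j • tnT e P (tens u (bw j)) := by
        intro u j
        rw [tnPhi_mulVec, kronGL_val, kron_mulVec_tens, hBg, hBw, Units.val_one,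
          Matrix.one_mulVec, bh_tens_smul_right, tnT_smul]
      rcases k with j | j
      · rw [hfr]
        simp only [Sum.elim_inl]
        exact hkey δ₀ j
      · rw [hfr]
        simp only [Sum.elim_inr]
        rw [Matrix.mulVec_smul, hkey]
        exact smul_comm _ _ _
  · obtain ⟨A₀, hA₀⟩ : ∃ A₀ : GL (Fin 2) F,
        (A₀ : Matrix (Fin 2) (Fin 2) F) = !![0, -1; 1, 0] :=
      ⟨⟨!![0, -1; 1, 0], !![0, 1; -1, 0],
        by rw [Matrix.mul_fin_two, Matrix.one_fin_two]; simp,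
        by rw [Matrix.mul_fin_two, Matrix.one_fin_two]; simp⟩, rfl⟩
    have hA0 : (A₀ : Matrix (Fin 2) (Fin 2) F) *ᵥ δ₀ = δ₁ := by
      rw [hA₀, hδ₀, hδ₁, Matrix.mulVec_single_one]
      funext i
      fin_cases i <;> simp
    have hA1 : (A₀ : Matrix (Fin 2) (Fin 2) F) *ᵥ δ₁ = (-1 : F) • δ₀ := by
      rw [hA₀, hδ₀, hδ₁, Matrix.mulVec_single_one]
      funext i
      fin_cases i <;> simp
    refine ⟨tnPhi e P (kronGL A₀ 1), ?_, ?_⟩
    · rw [tensorProductSubgroup_eq_map]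
      exact ⟨kronGL A₀ 1, kronGL_mem A₀ 1, rfl⟩
    · apply Matrix.ext_of_mulVec_single
      intro k
      rw [← Matrix.mulVec_mulVec, ← Matrix.mulVec_mulVec, hE, hEcol]
      have hkey : ∀ (u : Fin 2 → F) (j : Fin d),
          ((tnPhi e P (kronGL A₀ 1) : GL (Fin d ⊕ Fin d) F) :
            Matrix (Fin d ⊕ Fin d) (Fin d ⊕ Fin d) F) *ᵥ tnT e P (tens u (bw j)) =
            tnT e P (tens ((A₀ : Matrix (Fin 2) (Fin 2) F) *ᵥ u) (bw j)) := by
        intro u j
        rw [tnPhi_mulVec, kronGL_val, kron_mulVec_tens, Units.val_one, Matrix.one_mulVec]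
      rcases k with j | j
      · rw [bh_Jmat_col_inl, Matrix.mulVec_smul, hEcol, hfr]
        simp only [Sum.elim_inl, Sum.elim_inr]
        rw [hkey, hA0, smul_smul, mul_inv_cancel₀ (hκ0 j), one_smul]
      · rw [bh_Jmat_col_inr, Matrix.mulVec_smul, hEcol, hfr]
        simp only [Sum.elim_inl, Sum.elim_inr]
        rw [Matrix.mulVec_smul, hkey, hA1, bh_tens_smul_left, tnT_smul, smul_smul, mul_neg_one]

end Cfsg.Agent.Lib.Helper3.TSO
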