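import Mathlib
import Cfsg.Agent.Lib.Helper57.TSO.Defs
import Cfsg.Agent.Lib.Helper74.GUSP.SpCard

/-!
# Project TSO (S5980), package [NUM]

A prime `r ≠ p` dividing an index in `Sp_{2d}(q)` divides some `q^{2s} - 1` with `1 ≤ s ≤ d`;
`s` is taken minimal.
-/

set_option autoImplicit false

namespace Cfsg.Agent.Lib.Helper3.TSO

open Matrix
open scoped MatrixGroups

universe u

/-- [NUM] -/
theorem pkgNum : Cfsg.Agent.Lib.Helper57.TSO.PkgNum.{u} := by
  intro F _ _ p _ _ q hq d H r _ hrp hr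
  have hrP : r.Prime := Fact.out
  have hpP : p.Prime := Fact.out
  have h1 : r ∣ Nat.card (Cfsg.spGL d F) := dvd_trans hr (Subgroup.relIndex_dvd_card _ _)
  have hcard : Nat.card ↥(Cfsg.spGL d F) = Fintype.card F ^ (d ^ 2) *
      ∏ i ∈ Finset.range d, (Fintype.card F ^ (2 * (i + 1)) - 1) :=
    Cfsg.Agent.Lib.Helper74.GUSP.pkgSpCard d
  rw [hcard, hq] at h1
  have hrq : ¬ r ∣ q := by
    obtain ⟨n, -, hn⟩ := FiniteField.card F p
    rw [← hq, hn]
    intro h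
    exact hrp ((Nat.prime_dvd_prime_iff_eq hrP hpP).1 (hrP.dvd_of_dvd_pow h))
  have h2 : r ∣ ∏ i ∈ Finset.range d, (q ^ (2 * (i + 1)) - 1) := by
    rcases (Nat.Prime.dvd_mul hrP).1 h1 with h | h
    · exact absurd (hrP.dvd_of_dvd_pow h) hrq
    · exact h
  obtain ⟨i, hi, hri⟩ := (Prime.dvd_finsetProd_iff hrP.prime _).1 h2
  have hex : ∃ s, 1 ≤ s ∧ r ∣ q ^ (2 * s) - 1 := ⟨i + 1, by omega, hri⟩
  classical
  refine ⟨Nat.find hex, (Nat.find_spec hex).1, ?_, (Nat.find_spec hex).2, ?_⟩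
  · have h3 := Nat.find_min' hex
      (show 1 ≤ i + 1 ∧ r ∣ q ^ (2 * (i + 1)) - 1 from ⟨by omega, hri⟩)
    have h4 := Finset.mem_range.1 hi
    omega
  · intro s' h1' h2' h3'
    exact Nat.find_min hex h2' ⟨h1', h3'⟩

end Cfsg.Agent.Lib.Helper3.TSO
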